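import Mathlib
import Cfsg.Agent.Lib.Helper33.Breadth.Defs

/-!
# S3777 package [E3M]: the matrix lemma (Chevalley-Warning + Cramer)
-/

set_option autoImplicit false

namespace Cfsg.Agent.Lib.Helper67.Breadth

open Matrix Cfsg.Agent.Lib.Helper33.Breadth

/-- the determinant of a matrix with entries of total degree `≤ 1` has total degree `≤ n` -/
theorem totalDegree_det_le {K : Type} [Field K] {σ : Type} {n : ℕ}
    (M : Matrix (Fin n) (Fin n) (MvPolynomial σ K))
    (hM : ∀ i j, (M i j).totalDegree ≤ 1) : M.det.totalDegree ≤ n := by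
  classical
  rw [Matrix.det_apply]
  refine (MvPolynomial.totalDegree_finsetSum _ _).trans ?_
  apply Finset.sup_le
  intro τ _
  have h1 : (∏ i, M (τ i) i).totalDegree ≤ n := by
    refine (MvPolynomial.totalDegree_finsetProd _ _).trans ?_
    calc ∑ i, (M (τ i) i).totalDegree ≤ ∑ _i : Fin n, 1 := Finset.sum_le_sum (fun i _ => hM _ _)
      _ = n := by simp
  rcases Int.units_eq_one_or (Equiv.Perm.sign τ) with h | h
  · rw [h, one_smul]; exact h1
  · rw [h, Units.neg_smul, one_smul, MvPolynomial.totalDegree_neg]; exact h1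

theorem pkgE3M : PkgE3M := by
  intro p _ d B hanti hdiag
  classical
  by_contra hcon
  have hall : ∀ a : Fin (d + 1) → ZMod p, a ≠ 0 → (1 + ∑ i, a i • B i).det = 0 := by
    intro a ha
    by_contra h
    exact hcon ⟨a, ha, h⟩
  obtain ⟨N, hN⟩ : ∃ N : Matrix (Fin (d + 1)) (Fin (d + 1)) (MvPolynomial (Fin (d + 1)) (ZMod p)),
      N = fun k j => ∑ i, MvPolynomial.X i * MvPolynomial.C (B i k j) := ⟨_, rfl⟩
  obtain ⟨A, hA⟩ : ∃ A : Matrix (Fin (d + 1)) (Fin (d + 1)) (MvPolynomial (Fin (d + 1)) (ZMod p)),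
      A = 1 + N := ⟨_, rfl⟩
  obtain ⟨v, hv⟩ : ∃ v : Fin (d + 1) → MvPolynomial (Fin (d + 1)) (ZMod p),
      v = fun j => MvPolynomial.X j := ⟨_, rfl⟩
  have hNv : N *ᵥ v = 0 := by
    funext k
    rw [hN, hv]
    simp only [Matrix.mulVec, dotProduct, Pi.zero_apply, Finset.sum_mul]
    have h1 : ∑ j, ∑ i, (MvPolynomial.X i : MvPolynomial (Fin (d + 1)) (ZMod p)) *
          MvPolynomial.C (B i k j) * MvPolynomial.X j
        = ∑ x : Fin (d + 1) × Fin (d + 1), (MvPolynomial.X x.2 : MvPolynomial (Fin (d + 1)) (ZMod p)) *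
          MvPolynomial.C (B x.2 k x.1) * MvPolynomial.X x.1 := by
      rw [Fintype.sum_prod_type]
    rw [h1]
    apply Finset.sum_involution (fun (x : Fin (d + 1) × Fin (d + 1)) _ => (x.2, x.1))
    · intro x _
      dsimp only
      rw [hanti x.2 x.1 k, map_neg]
      ring
    · intro x _ hne hx
      apply hne
      have h12 : x.2 = x.1 := congrArg Prod.fst hx
      rw [h12, hdiag, map_zero, mul_zero, zero_mul]
    · intro x _
      exact Finset.mem_univ _
    · intro x _
      rfl
  have hAv : A *ᵥ v = v := by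
    rw [hA, Matrix.add_mulVec, Matrix.one_mulVec, hNv, add_zero]
  have hcr : (A.updateCol 0 v).det = A.det * MvPolynomial.X 0 := by
    have h1 : A.cramer v = A.det • v := by
      calc A.cramer v = A.adjugate *ᵥ v := Matrix.cramer_eq_adjugate_mulVec A v
        _ = A.adjugate *ᵥ (A *ᵥ v) := by rw [hAv]
        _ = A.det • v := by
          rw [Matrix.mulVec_mulVec, Matrix.adjugate_mul, Matrix.smul_mulVec, Matrix.one_mulVec]
    have h2 := congrFun h1 0
    rw [Matrix.cramer_apply] at h2
    rw [h2, hv]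
    simp
  have hNdeg : ∀ i j, (N i j).totalDegree ≤ 1 := by
    intro i j
    rw [hN]
    refine (MvPolynomial.totalDegree_finsetSum _ _).trans ?_
    apply Finset.sup_le
    intro l _
    refine (MvPolynomial.totalDegree_mul _ _).trans ?_
    rw [MvPolynomial.totalDegree_X, MvPolynomial.totalDegree_C]
  have hAdeg : ∀ i j, (A i j).totalDegree ≤ 1 := by
    intro i j
    rw [hA, Matrix.add_apply]
    refine (MvPolynomial.totalDegree_add _ _).trans ?_
    apply max_le
    · rw [Matrix.one_apply]
      split_ifs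
      · rw [MvPolynomial.totalDegree_one]; exact Nat.zero_le _
      · rw [MvPolynomial.totalDegree_zero]; exact Nat.zero_le _
    · exact hNdeg i j
  have hUdeg : ∀ i j, ((A.updateCol 0 v) i j).totalDegree ≤ 1 := by
    intro i j
    rw [Matrix.updateCol_apply]
    split_ifs
    · rw [hv, MvPolynomial.totalDegree_X]
    · exact hAdeg i j
  have hdet1 := totalDegree_det_le (A.updateCol 0 v) hUdeg
  -- evaluation
  have heval : ∀ a : Fin (d + 1) → ZMod p,
      MvPolynomial.eval a A.det = (1 + ∑ i, a i • B i).det := by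
    intro a
    rw [RingHom.map_det]
    congr 1
    ext i j
    have hAij : A i j = (1 : Matrix (Fin (d + 1)) (Fin (d + 1))
        (MvPolynomial (Fin (d + 1)) (ZMod p))) i j
        + ∑ l, MvPolynomial.X l * MvPolynomial.C (B l i j) := by
      rw [hA, hN]; rfl
    rw [RingHom.mapMatrix_apply, Matrix.map_apply, hAij, Matrix.one_apply]
    by_cases hij : i = j
    · simp [Matrix.add_apply, Matrix.sum_apply, hij]
    · simp [Matrix.add_apply, Matrix.sum_apply, hij]
  have hA0 : A.det ≠ 0 := by
    intro h0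
    have h1 := heval 0
    rw [h0, map_zero] at h1
    simp at h1
  have hdeg : A.det.totalDegree ≤ d := by
    have h1 : (A.det * MvPolynomial.X 0).totalDegree = A.det.totalDegree + 1 := by
      rw [MvPolynomial.totalDegree_mul_of_isDomain hA0 (MvPolynomial.X_ne_zero _),
        MvPolynomial.totalDegree_X]
    rw [hcr, h1] at hdet1
    omega
  have hp : 2 ≤ p := (Fact.out : p.Prime).two_le
  have hsum := MvPolynomial.sum_eval_eq_zero A.det (by
    rw [ZMod.card, Fintype.card_fin]
    calc A.det.totalDegree ≤ d := hdeg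
      _ < 1 * (d + 1) := by omega
      _ ≤ (p - 1) * (d + 1) := Nat.mul_le_mul_right _ (by omega))
  rw [Finset.sum_eq_single (0 : Fin (d + 1) → ZMod p)] at hsum
  · rw [heval] at hsum
    simp at hsum
  · intro a _ ha
    rw [heval, hall a ha]
  · intro h
    exact absurd (Finset.mem_univ _) h

end Cfsg.Agent.Lib.Helper67.Breadth
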