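import Mathlib
import Cfsg.Agent.Lib.Helper33.Breadth.Defs
import Cfsg.Agent.Lib.Helper67.Breadth.E3M

/-!
# S3777 package [E3]: the coordinate-free version of [E3M]
-/

set_option autoImplicit false

namespace Cfsg.Agent.Lib.Helper67.Breadth

open Matrix Cfsg.Agent.Lib.Helper33.Breadth

universe u

theorem pkgE3 : PkgE3.{u} := by
  intro p _ U _ _ _ _ θ hθ
  classical
  have : Module.Finite (ZMod p) U := Module.Finite.of_finite
  have hpos : 0 < Module.finrank (ZMod p) U := Module.finrank_pos
  obtain ⟨d, hd⟩ : ∃ d, Module.finrank (ZMod p) U = d + 1 :=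
    ⟨Module.finrank (ZMod p) U - 1, by omega⟩
  obtain ⟨e⟩ : Nonempty (Module.Basis (Fin (d + 1)) (ZMod p) U) :=
    ⟨Module.finBasisOfFinrankEq (ZMod p) U hd⟩
  have hanti : ∀ x y : U, θ x y = - θ y x := by
    intro x y
    have h := hθ (x + y)
    simp only [map_add, LinearMap.add_apply, hθ, zero_add, add_zero] at h
    exact eq_neg_of_add_eq_zero_right h
  obtain ⟨B, hB⟩ : ∃ B : Fin (d + 1) → Matrix (Fin (d + 1)) (Fin (d + 1)) (ZMod p),
      ∀ i k j, B i k j = e.repr (θ (e j) (e i)) k := ⟨fun i k j => e.repr (θ (e j) (e i)) k,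
        fun _ _ _ => rfl⟩
  obtain ⟨a, ha0, hdet⟩ := pkgE3M p d B (by
      intro i j k
      rw [hB, hB, hanti (e j) (e i), map_neg, Finsupp.neg_apply]) (by
      intro i k
      rw [hB, hθ, map_zero, Finsupp.zero_apply])
  refine ⟨∑ i, a i • e i, ?_, ?_⟩
  · intro h0
    apply ha0
    funext i
    have h1 := congrArg (fun x => e.repr x i) h0
    simpa [Finsupp.single_apply] using h1
  · intro c hc
    have hkey : ∀ k, e.repr (θ c (∑ i, a i • e i)) k =
        ∑ j, ∑ i, a i * B i k j * e.repr c j := by
      intro k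
      conv_lhs => rw [← e.sum_repr c]
      simp only [map_sum, LinearMap.sum_apply, map_smul, LinearMap.smul_apply,
        Finsupp.coe_finsetSum, Finset.sum_apply, Finsupp.smul_apply, smul_eq_mul, hB,
        Finset.mul_sum]
      rw [Finset.sum_comm]
      refine Finset.sum_congr rfl (fun j _ => Finset.sum_congr rfl (fun i _ => ?_))
      ring
    have hx : (1 + ∑ i, a i • B i) *ᵥ (fun j => e.repr c j) = 0 := by
      funext k
      have h1 := congrArg (fun x => e.repr x k) hc
      simp only [map_add, Finsupp.add_apply, map_zero, Finsupp.zero_apply] at h1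
      rw [hkey k] at h1
      rw [Matrix.add_mulVec, Matrix.one_mulVec, Pi.add_apply, Pi.zero_apply]
      rw [← h1]
      congr 1
      simp only [Matrix.mulVec, dotProduct, Matrix.sum_apply, Matrix.smul_apply, smul_eq_mul,
        Finset.sum_mul]
    have h0 := Matrix.eq_zero_of_mulVec_eq_zero hdet hx
    apply e.repr.injective
    ext j
    rw [map_zero, Finsupp.zero_apply]
    exact congrFun h0 j

example : PkgE3.{3} := pkgE3
example : PkgE3.{0} := pkgE3

end Cfsg.Agent.Lib.Helper67.Breadth
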